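import Cfsg.Agent.Lib.Deg3.LemB

/-!
# Three character degrees: derived length at most three
-/

set_option autoImplicit false
set_option linter.unusedSectionVars false
set_option linter.unusedVariables false
set_option linter.unusedSimpArgs false

open Cfsg Cfsg.Agent.Lib.Char
open scoped commutatorElement ComplexConjugate

namespace Cfsg.Agent.Lib.Deg3

universe u

variable {G : Type u} [Group G] [Fintype G]

theorem core {m m' : ℕ} (hcop : Nat.Coprime m m') (h1m : 1 < m) (h1m' : 1 < m')
    (hcd : ∀ γ : IrrCharacter G, charDegree (γ : G → ℂ) = 1 ∨ charDegree (γ : G → ℂ) = m ∨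
      charDegree (γ : G → ℂ) = m')
    (hex : ∃ τ : IrrCharacter G, charDegree (τ : G → ℂ) = m')
    (K : Subgroup G) [hK : K.Normal] (hJ : JustNonAb (G ⧸ K)) [Fintype (G ⧸ K)]
    (χ₀ : IrrCharacter (G ⧸ K)) (hd₀ : charDegree (χ₀ : G ⧸ K → ℂ) = m) : derivedSeries G 3 = ⊥ := by
  classical
  have hm1 : charDegree (χ₀ : G ⧸ K → ℂ) ≠ 1 := by omega
  have hD0 : commutator (G ⧸ K) ≠ ⊥ := by
    intro h
    apply hJ.not_comm
    intro a b
    have h1 : ⁅a, b⁆ ∈ commutator (G ⧸ K) :=
      Subgroup.commutator_mem_commutator (Subgroup.mem_top _) (Subgroup.mem_top _)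
    rw [h, Subgroup.mem_bot, commutatorElement_eq_one_iff_mul_comm] at h1
    exact h1
  have hcdQ : ∀ γ : IrrCharacter (G ⧸ K), charDegree (γ : G ⧸ K → ℂ) = 1 ∨
      charDegree (γ : G ⧸ K → ℂ) = m ∨ charDegree (γ : G ⧸ K → ℂ) = m' := by
    intro γ
    have h := hcd (Degree.inflate K γ)
    rwa [charDegree_inflate] at h
  by_cases hZ : Subgroup.center (G ⧸ K) = ⊥
  · have hcdΓ : ∀ γ : IrrCharacter (G ⧸ K), charDegree (γ : G ⧸ K → ℂ) = 1 ∨
        charDegree (γ : G ⧸ K → ℂ) = m := by
      intro γ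
      rcases hcdQ γ with h | h | h
      · exact Or.inl h
      · exact Or.inr h
      · exfalso
        have h1 := norm_cond hJ hZ χ₀.2 hm1
        have h2 := norm_cond hJ hZ γ.2 (by omega)
        rw [hd₀] at h1
        rw [h] at h2
        exact no_both_faithful hcop h1m h1m' hcdQ χ₀.2 γ.2 hd₀ h h1 h2
    have hab := Cfsg.Agent.S4458.result m hcdΓ ⟨χ₀, hd₀⟩ (by omega)
    obtain ⟨hidx, hcp⟩ := frob_index hJ hZ hab (by omega) hcdΓ
    obtain ⟨g₀, hg₀⟩ := frob_cyclic hJ hZ hab
    obtain ⟨x₀, rfl⟩ := QuotientGroup.mk_surjective g₀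
    set N : Subgroup G := (commutator (G ⧸ K)).comap (QuotientGroup.mk' K) with hN
    haveI hNn : N.Normal := Subgroup.Normal.comap inferInstance _
    have hmem : ∀ x : G, x ∈ N ↔ (x : G ⧸ K) ∈ commutator (G ⧸ K) := fun x => Iff.rfl
    have hcm : ∀ a b : G, a * b * a⁻¹ * b⁻¹ = ⁅a, b⁆ := fun a b => rfl
    refine derived_three_of_lemma_b hcop h1m h1m' hcd N K ?_ ?_ ?_ ?_ ?_ x₀ ?_ ?_ ?_
    · intro x hx
      rw [hmem, (QuotientGroup.eq_one_iff x).mpr hx]
      exact Subgroup.one_mem _
    · rw [← hidx]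
      exact Subgroup.index_comap_of_surjective _ (QuotientGroup.mk'_surjective K)
    · intro a b
      rw [hcm, hmem, mk_commutatorElement']
      exact Subgroup.commutator_mem_commutator (Subgroup.mem_top _) (Subgroup.mem_top _)
    · intro a ha b hb
      rw [hcm, ← QuotientGroup.eq_one_iff, mk_commutatorElement', commutatorElement_eq_one_iff_mul_comm]
      exact hab _ ((hmem a).mp ha) _ ((hmem b).mp hb)
    · intro h
      apply hD0
      rw [eq_bot_iff]
      intro q hq
      obtain ⟨x, rfl⟩ := QuotientGroup.mk_surjective q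
      have h1 : x ∈ N := (hmem x).mpr hq
      rw [← h] at h1
      rw [Subgroup.mem_bot]
      exact (QuotientGroup.eq_one_iff x).mpr h1
    · intro i hi hlt h
      apply hg₀ i hi (by omega)
      have h1 := (hmem _).mp h
      rwa [QuotientGroup.mk_pow] at h1
    · intro y hy n hn h
      have h1 : (y : G ⧸ K) ∉ commutator (G ⧸ K) := fun h2 => hy ((hmem y).mpr h2)
      have h2 := frob_fpf hJ hZ hab h1 _ ((hmem n).mp hn)
      rw [← QuotientGroup.eq_one_iff]
      apply h2
      rw [hcm, ← QuotientGroup.eq_one_iff, mk_commutatorElement', commutatorElement_eq_one_iff_mul_comm] at h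
      exact h.symm
    · have h1 : (K.subgroupOf N).index = Nat.card (commutator (G ⧸ K)) := by
        have h2 : K = (⊥ : Subgroup (G ⧸ K)).comap (QuotientGroup.mk' K) := by
          ext x
          rw [Subgroup.mem_comap, Subgroup.mem_bot]
          exact (QuotientGroup.eq_one_iff x).symm
        have h3 : K.relIndex N = (⊥ : Subgroup (G ⧸ K)).relIndex (commutator (G ⧸ K)) := by
          conv_lhs => rw [h2]
          rw [Subgroup.relIndex_comap, hN,
            Subgroup.map_comap_eq_self_of_surjective (QuotientGroup.mk'_surjective K)]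
        rw [show (K.subgroupOf N).index = K.relIndex N from rfl, h3, Subgroup.relIndex_bot_left]
      rw [h1, ← hidx]
      exact hcp.symm
  · exfalso
    have hDZ : commutator (G ⧸ K) ≤ Subgroup.center (G ⧸ K) := hJ.le _ inferInstance hZ
    set Y : Subgroup G := (Subgroup.center (G ⧸ K)).comap (QuotientGroup.mk' K) with hY
    haveI hYn : Y.Normal := Subgroup.Normal.comap inferInstance _
    haveI : Fintype Y := Fintype.ofFinite Y
    set χ := Degree.inflate K χ₀ with hχ
    have hdχ : charDegree (χ : G → ℂ) = m := by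
      rw [hχ, charDegree_inflate, hd₀]
    obtain ⟨τ, hτ⟩ := hex
    have hirr := mul_irr_of_vanish Y (χ := (χ : G → ℂ)) (τ := (τ : G → ℂ)) χ.2 τ.2
      (fun g hg => vanish_off_center hJ hDZ χ₀.2 hm1 (g : G ⧸ K) hg)
      (fun y hy => by
        rw [hdχ, ← hd₀]
        exact norm_on_center χ₀.2 (y : G ⧸ K) hy)
      (by rw [hτ, hdχ]; exact hcop.symm)
    have hdeg : charDegree ((χ : G → ℂ) * (τ : G → ℂ)) = m * m' := by
      refine charDegree_natCast ?_
      rw [Pi.mul_apply, map_one_eq_charDegree (IsIrrCharacter.isCharacter χ.2),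
        map_one_eq_charDegree (IsIrrCharacter.isCharacter τ.2), hdχ, hτ]
      push_cast
      rfl
    have h2 := hcd ⟨_, hirr⟩
    simp only at h2
    rw [hdeg] at h2
    rcases h2 with h | h | h
    · nlinarith
    · nlinarith
    · nlinarith

theorem case_coprime {a b : ℕ} (hcop : Nat.Coprime a b) (h1a : 1 < a) (h1b : 1 < b)
    (hcd : ∀ γ : IrrCharacter G, charDegree (γ : G → ℂ) = 1 ∨ charDegree (γ : G → ℂ) = a ∨
      charDegree (γ : G → ℂ) = b)
    (hexa : ∃ χ : IrrCharacter G, charDegree (χ : G → ℂ) = a)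
    (hexb : ∃ χ : IrrCharacter G, charDegree (χ : G → ℂ) = b) : derivedSeries G 3 = ⊥ := by
  classical
  have hnc : ¬ ∀ x y : G, x * y = y * x := by
    intro h
    obtain ⟨χ, hχ⟩ := hexa
    have h1 := charDegree_eq_one_of_comm h χ.2
    rw [charDegree_natCast (n := 1) (by simpa using h1)] at hχ
    omega
  obtain ⟨K, hK, hJ⟩ := exists_justNonAb hnc
  haveI := hK
  haveI : Fintype (G ⧸ K) := Fintype.ofFinite _
  obtain ⟨χ₀, hχ₀⟩ : ∃ χ₀ : IrrCharacter (G ⧸ K), charDegree (χ₀ : G ⧸ K → ℂ) ≠ 1 := by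
    by_contra hcon
    push Not at hcon
    apply hJ.not_comm
    apply comm_iff_forall_irr_degree_one.mpr
    intro χ
    rw [map_one_eq_charDegree (IsIrrCharacter.isCharacter χ.2), hcon χ]
    simp
  have h := hcd (Degree.inflate K χ₀)
  rw [charDegree_inflate] at h
  rcases h with h | h | h
  · exact absurd h hχ₀
  · exact core hcop h1a h1b hcd hexb K hJ χ₀ h
  · exact core hcop.symm h1b h1a (fun γ => by have := hcd γ; tauto) hexa K hJ χ₀ h

/-- Three degrees. -/
theorem main_three (n : ℕ) : ∀ (A : Type u) [Group A] [Fintype A], Nat.card A = n → ∀ a b : ℕ,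
    (∀ γ : IrrCharacter A, charDegree (γ : A → ℂ) = 1 ∨ charDegree (γ : A → ℂ) = a ∨
      charDegree (γ : A → ℂ) = b) → derivedSeries A 3 = ⊥ := by
  induction n using Nat.strong_induction_on with
  | _ n IH =>
    intro A _ _ hn a b hcd
    have htwo : ∀ c : ℕ, (∀ γ : IrrCharacter A, charDegree (γ : A → ℂ) = 1 ∨ charDegree (γ : A → ℂ) = c) →
        derivedSeries A 3 = ⊥ := by
      intro c hc
      have h1 := derived_two_of_two_deg c hc
      rw [derivedSeries_succ, h1]
      exact Subgroup.commutator_bot_left _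
    by_cases h1 : ∃ χ : IrrCharacter A, charDegree (χ : A → ℂ) = a
    swap
    · refine htwo b fun γ => ?_
      rcases hcd γ with h | h | h
      · exact Or.inl h
      · exact absurd ⟨γ, h⟩ h1
      · exact Or.inr h
    by_cases h2 : ∃ χ : IrrCharacter A, charDegree (χ : A → ℂ) = b
    swap
    · refine htwo a fun γ => ?_
      rcases hcd γ with h | h | h
      · exact Or.inl h
      · exact Or.inr h
      · exact absurd ⟨γ, h⟩ h2
    by_cases ha1 : a = 1
    · subst ha1
      refine htwo b fun γ => ?_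
      rcases hcd γ with h | h | h
      · exact Or.inl h
      · exact Or.inl h
      · exact Or.inr h
    by_cases hb1 : b = 1
    · subst hb1
      refine htwo a fun γ => ?_
      rcases hcd γ with h | h | h
      · exact Or.inl h
      · exact Or.inr h
      · exact Or.inl h
    have ha0 : a ≠ 0 := by
      obtain ⟨χ, hχ⟩ := h1
      have := charDegree_pos_of_irr χ.2
      omega
    have hb0 : b ≠ 0 := by
      obtain ⟨χ, hχ⟩ := h2
      have := charDegree_pos_of_irr χ.2
      omega
    by_cases hc : Nat.Coprime a b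
    · exact case_coprime hc (by omega) (by omega) hcd h1 h2
    · obtain ⟨r, hr, hra, hrb⟩ := Nat.Prime.not_coprime_iff_dvd.mp hc
      refine case_prime (fun B _ _ hB c d hcd' => ?_) a b r hr (by omega) (by omega) hra hrb hcd h1
      haveI := Fintype.ofFinite B
      exact IH _ (hn ▸ hB) B rfl c d hcd'

end Cfsg.Agent.Lib.Deg3
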